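import Mathlib
import Cfsg.Prelude.Def_GeometricClasses
import Cfsg.Agent.Lib.Helper94.Tens

/-!
# Elements of prime order and tensor product subgroups (helper9, row S5979): definitions
-/

set_option autoImplicit false

namespace Cfsg.Agent.Lib.Helper9.Tn

open Matrix
open Cfsg.Agent.Lib.Helper94.Tens (pt)

variable {F : Type*} [Field F]

/-- dimension of the `c`-eigenspace of a matrix -/
noncomputable def eigdim {ι : Type} [Fintype ι] [DecidableEq ι] (M : Matrix ι ι F) (c : F) : ℕ :=
  Module.finrank F (LinearMap.ker (Matrix.toLin' M - c • LinearMap.id))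

/-- `x` acts on the pure tensors `pt e P u w` as `A ⊗ B` -/
def Acts {n a b : ℕ} (e : Fin n ≃ Fin a × Fin b) (P : Matrix.GeneralLinearGroup (Fin n) F)
    (x : Matrix (Fin n) (Fin n) F) (A : Matrix (Fin a) (Fin a) F) (B : Matrix (Fin b) (Fin b) F) : Prop :=
  ∀ u w, x *ᵥ pt e P u w = pt e P (A *ᵥ u) (B *ᵥ w)

end Cfsg.Agent.Lib.Helper9.Tn
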