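import Mathlib
import Cfsg.Agent.Lib.Helper9.Tn.Defs

set_option autoImplicit false

namespace Cfsg.Agent.Lib.Helper9.Tn

open Module Matrix

variable {F : Type*} [Field F] {n a b : ℕ}

/-- [ET] -/
theorem eigdim_eq_iff {m : ℕ} (M : Matrix (Fin m) (Fin m) F) (c : F) :
    eigdim M c = m ↔ M = c • (1 : Matrix (Fin m) (Fin m) F) := by
  unfold eigdim
  constructor
  · intro h
    have htop : LinearMap.ker (Matrix.toLin' M - c • LinearMap.id) = ⊤ := by
      apply Submodule.eq_top_of_finrank_eq
      rw [h, Module.finrank_fin_fun]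
    have h0 : Matrix.toLin' M - c • LinearMap.id = 0 := LinearMap.ker_eq_top.mp htop
    apply Matrix.toLin'.injective
    rw [map_smul, Matrix.toLin'_one]
    exact sub_eq_zero.mp h0
  · intro h
    have h0 : Matrix.toLin' M - c • LinearMap.id = 0 := by
      rw [h, map_smul, Matrix.toLin'_one, sub_self]
    rw [h0, LinearMap.ker_zero, finrank_top, Module.finrank_fin_fun]

end Cfsg.Agent.Lib.Helper9.Tn
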