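import Mathlib
import Cfsg.Agent.Lib.Helper9.Tn.Defs
import Cfsg.Agent.Lib.Helper94.Tens

set_option autoImplicit false

namespace Cfsg.Agent.Lib.Helper9.Tn

open Module Matrix
open Cfsg.Agent.Lib.Helper94.Tens (pt)

variable {F : Type*} [Field F] {n a b : ℕ}

/-- the coordinate isomorphism `y ↦ ∑ j, e_j ⊗ y j` -/
noncomputable def KER_Phi (e : Fin n ≃ Fin a × Fin b) (P : Matrix.GeneralLinearGroup (Fin n) F) :
    (Fin a → (Fin b → F)) ≃ₗ[F] (Fin n → F) :=
  (LinearEquiv.curry F F (Fin a) (Fin b)).symm.trans (Cfsg.Agent.Lib.Helper94.Tens.TT e P)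

theorem KER_Phi_eq (e : Fin n ≃ Fin a × Fin b) (P : Matrix.GeneralLinearGroup (Fin n) F)
    (y : Fin a → (Fin b → F)) :
    KER_Phi e P y = ∑ j, pt e P (Pi.single j 1) (y j) := by
  simp only [Cfsg.Agent.Lib.Helper94.Tens.pt_eq_TT]
  rw [← map_sum]
  show Cfsg.Agent.Lib.Helper94.Tens.TT e P ((LinearEquiv.curry F F (Fin a) (Fin b)).symm y) = _
  congr 1
  funext p
  obtain ⟨i, k⟩ := p
  rw [Finset.sum_apply]
  simp only [Cfsg.Agent.Lib.Helper94.Tens.pc]
  rw [Finset.sum_eq_single i]
  · simp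
  · intro j _ hj
    rw [Pi.single_eq_of_ne (Ne.symm hj), zero_mul]
  · intro h
    exact absurd (Finset.mem_univ i) h

/-- [KER] -/
theorem eigdim_of_acts_one (e : Fin n ≃ Fin a × Fin b) (P : Matrix.GeneralLinearGroup (Fin n) F)
    {x : Matrix (Fin n) (Fin n) F} {B : Matrix (Fin b) (Fin b) F}
    (hx : Acts e P x 1 B) (c : F) : eigdim x c = a * eigdim B c := by
  have hact : ∀ y : Fin a → (Fin b → F), x *ᵥ KER_Phi e P y = KER_Phi e P (fun j => B *ᵥ y j) := by
    intro y
    rw [KER_Phi_eq, KER_Phi_eq, Matrix.mulVec_sum]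
    refine Finset.sum_congr rfl fun j _ => ?_
    rw [hx, Matrix.one_mulVec]
  obtain ⟨Nx, hNx⟩ : ∃ Nx : (Fin n → F) →ₗ[F] (Fin n → F),
      Nx = Matrix.toLin' x - c • LinearMap.id := ⟨_, rfl⟩
  obtain ⟨NB, hNB⟩ : ∃ NB : (Fin b → F) →ₗ[F] (Fin b → F),
      NB = Matrix.toLin' B - c • LinearMap.id := ⟨_, rfl⟩
  have key : ∀ y : Fin a → (Fin b → F),
      Nx (KER_Phi e P y) = KER_Phi e P (fun j => NB (y j)) := by
    intro y
    have h1 : (fun j => NB (y j)) = (fun j => B *ᵥ y j) - c • y := by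
      funext j
      simp [hNB, Matrix.toLin'_apply]
    rw [h1, map_sub, map_smul, ← hact]
    simp [hNx, Matrix.toLin'_apply]
  have hmem : ∀ y : Fin a → (Fin b → F),
      KER_Phi e P y ∈ LinearMap.ker Nx ↔ ∀ j, y j ∈ LinearMap.ker NB := by
    intro y
    rw [LinearMap.mem_ker, key, LinearEquiv.map_eq_zero_iff]
    constructor
    · intro h j
      exact congrFun h j
    · intro h
      funext j
      exact h j
  let E : (Fin a → ↥(LinearMap.ker NB)) ≃ₗ[F] ↥(LinearMap.ker Nx) :=
    { toFun := fun y => ⟨KER_Phi e P (fun j => (y j).1), (hmem _).2 (fun j => (y j).2)⟩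
      map_add' := fun y z => Subtype.ext (by
        show KER_Phi e P (fun j => ((y + z) j).1) =
          KER_Phi e P (fun j => (y j).1) + KER_Phi e P (fun j => (z j).1)
        rw [← map_add]
        rfl)
      map_smul' := fun s y => Subtype.ext (by
        show KER_Phi e P (fun j => ((s • y) j).1) = s • KER_Phi e P (fun j => (y j).1)
        rw [← map_smul]
        rfl)
      invFun := fun z => fun j => ⟨(KER_Phi e P).symm z.1 j,
        (hmem ((KER_Phi e P).symm z.1)).1 (by rw [LinearEquiv.apply_symm_apply]; exact z.2) j⟩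
      left_inv := fun y => by
        funext j
        apply Subtype.ext
        show (KER_Phi e P).symm (KER_Phi e P (fun j => (y j).1)) j = _
        rw [LinearEquiv.symm_apply_apply]
      right_inv := fun z => by
        apply Subtype.ext
        show KER_Phi e P (fun j => (KER_Phi e P).symm z.1 j) = z.1
        exact LinearEquiv.apply_symm_apply _ _ }
  rw [eigdim, eigdim, ← hNx, ← hNB, ← LinearEquiv.finrank_eq E, Module.finrank_pi_fintype]
  simp

end Cfsg.Agent.Lib.Helper9.Tn
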