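import Mathlib
import Cfsg.Agent.Lib.Helper9.Tn.Defs
import Cfsg.Agent.Lib.Helper67.Elus.S2
import Cfsg.Agent.Lib.Helper67.Elus.Bridge

set_option autoImplicit false

namespace Cfsg.Agent.Lib.Helper9.Tn

open Module Matrix

variable {F : Type*} [Field F] {n a b : ℕ}

/-- [L1b] -/
theorem order_add_eigdim_le [Fintype F] {m : ℕ} (Y : Matrix (Fin m) (Fin m) F) (r : ℕ) [Fact r.Prime]
    (hr : (r : F) ≠ 0) (hY : Y ^ r = 1) (hY1 : Y ≠ 1) :
    orderOf ((Fintype.card F : ℕ) : ZMod r) + eigdim Y 1 ≤ m := by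
  obtain ⟨T, hTdef⟩ : ∃ T : Module.End F (Fin m → F), T = Matrix.toLin' Y := ⟨_, rfl⟩
  have hT : T ^ r = 1 := by
    rw [hTdef, ← Cfsg.Agent.Lib.Helper67.Elus.toLin'_pow_B, hY, Matrix.toLin'_one]
    rfl
  have hT1 : T ≠ 1 := by
    intro h
    apply hY1
    apply Matrix.toLin'.injective
    rw [← hTdef, h, Matrix.toLin'_one]
    rfl
  have hker : eigdim Y 1 = finrank F (LinearMap.ker (T - 1)) := by
    rw [eigdim, hTdef, one_smul]
    rfl
  have hrn := LinearMap.finrank_range_add_finrank_ker (T - 1)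
  rw [Module.finrank_fin_fun] at hrn
  have hcomm : ∀ u, T ((T - 1) u) = (T - 1) (T u) := by
    intro u
    simp only [LinearMap.sub_apply, Module.End.one_apply, map_sub]
  have hInv : Cfsg.Agent.Lib.Helper67.Elus.Inv T (LinearMap.range (T - 1)) := by
    rintro _ ⟨u, rfl⟩
    exact ⟨T u, (hcomm u).symm⟩
  have hfix : ∀ w ∈ LinearMap.range (T - 1), T w = w → w = 0 := by
    rintro _ ⟨u, rfl⟩ hw
    have hTu : T u = u + (T - 1) u := by
      simp only [LinearMap.sub_apply, Module.End.one_apply]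
      abel
    have hpow : ∀ k : ℕ, (T ^ k) u = u + (k : F) • (T - 1) u := by
      intro k
      induction k with
      | zero => simp
      | succ k ih =>
        rw [pow_succ', Module.End.mul_apply, ih, map_add, map_smul, hw, hTu, Nat.cast_succ,
          add_smul, one_smul]
        abel
    have h1 := hpow r
    rw [hT, Module.End.one_apply] at h1
    have h2 : (r : F) • (T - 1) u = 0 := by
      have h3 : u + 0 = u + (r : F) • (T - 1) u := by rw [add_zero]; exact h1
      exact (add_left_cancel h3).symm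
    exact (smul_eq_zero.1 h2).resolve_left hr
  have hdvd := Cfsg.Agent.Lib.Helper67.Elus.oq_dvd_finrank hT hInv hfix
  have hpos : 0 < finrank F (LinearMap.range (T - 1)) := by
    rw [Module.finrank_pos_iff_exists_ne_zero]
    by_contra hcon
    push Not at hcon
    apply hT1
    apply LinearMap.ext
    intro u
    have h1 := hcon ⟨(T - 1) u, ⟨u, rfl⟩⟩
    have h2 : (T - 1) u = 0 := congrArg Subtype.val h1
    rw [LinearMap.sub_apply, sub_eq_zero] at h2
    exact h2
  have hle := Nat.le_of_dvd hpos hdvd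
  rw [Cfsg.Agent.Lib.Helper67.Elus.oq] at hle
  rw [hker]
  omega

end Cfsg.Agent.Lib.Helper9.Tn
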