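import Mathlib
import Cfsg.Agent.Lib.Helper9.Tn.Defs

set_option autoImplicit false

namespace Cfsg.Agent.Lib.Helper9.Tn

open Module Matrix

variable {F : Type*} [Field F] {n a b : ℕ}

/-- [NS] -/
theorem exists_indep_of_not_scalar {m : ℕ} (A : Matrix (Fin m) (Fin m) F)
    (h : ∀ s : F, A ≠ s • (1 : Matrix (Fin m) (Fin m) F)) :
    ∃ u : Fin m → F, LinearIndependent F ![u, A *ᵥ u] := by
  classical
  by_contra hcon
  push Not at hcon
  have key : ∀ v : Fin m → F, v ≠ 0 → ∃ a : F, a • v = A *ᵥ v := by
    intro v hv
    have := hcon v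
    rw [LinearIndependent.pair_iff' hv] at this
    push Not at this
    exact this
  have he : ∀ i : Fin m, (Pi.single i 1 : Fin m → F) ≠ 0 := fun i => by
    intro h0
    have := congrFun h0 i
    simp at this
  choose a ha using fun i => key _ (he i)
  have hcol : ∀ i j, A i j = if i = j then a j else 0 := by
    intro i j
    have h1 := congrFun (ha j) i
    rw [Matrix.mulVec_single_one] at h1
    have h2 : A i j = (a j • (Pi.single j 1 : Fin m → F)) i := h1.symm
    rw [h2, Pi.smul_apply, Pi.single_apply]
    by_cases hij : i = j <;> simp [hij]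
  have hall : ∀ i j, a i = a j := by
    intro i j
    by_cases hij : i = j
    · rw [hij]
    have hne : (Pi.single i 1 + Pi.single j 1 : Fin m → F) ≠ 0 := by
      intro h0
      have := congrFun h0 i
      simp [hij] at this
    obtain ⟨c, hc⟩ := key _ hne
    rw [Matrix.mulVec_add, ← ha i, ← ha j] at hc
    have h1 := congrFun hc i
    have h2 := congrFun hc j
    simp [hij, Ne.symm hij] at h1 h2
    rw [← h1, ← h2]
  by_cases hne : Nonempty (Fin m)
  · obtain ⟨i0⟩ := hne
    apply h (a i0)
    ext i j
    rw [hcol, Matrix.smul_apply, Matrix.one_apply, hall j i0]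
    by_cases hij : i = j <;> simp [hij]
  · apply h 0
    ext i
    exact (hne ⟨i⟩).elim

end Cfsg.Agent.Lib.Helper9.Tn
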