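import Mathlib
import Cfsg.Agent.Lib.Helper9.Tn.Defs
import Cfsg.Agent.Lib.Helper94.Tens
import Cfsg.Prelude.Def_GeometricClasses

set_option autoImplicit false

namespace Cfsg.Agent.Lib.Helper9.Tn

open Module Matrix
open Cfsg.Agent.Lib.Helper94.Tens (pt)

variable {F : Type*} [Field F] {n a b : ℕ}

theorem acts_pow (e : Fin n ≃ Fin a × Fin b) (P : Matrix.GeneralLinearGroup (Fin n) F)
    {x : Matrix (Fin n) (Fin n) F} {A : Matrix (Fin a) (Fin a) F} {B : Matrix (Fin b) (Fin b) F}
    (hx : Acts e P x A B) (k : ℕ) : Acts e P (x ^ k) (A ^ k) (B ^ k) := by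
  induction k with
  | zero =>
    intro u w
    simp only [pow_zero, Matrix.one_mulVec]
  | succ k ih =>
    intro u w
    rw [pow_succ, pow_succ, pow_succ, ← Matrix.mulVec_mulVec, hx u w, ih, Matrix.mulVec_mulVec,
      Matrix.mulVec_mulVec]

end Cfsg.Agent.Lib.Helper9.Tn
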