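import Mathlib
import Cfsg.Agent.Lib.Helper9.Tn.Defs
import Cfsg.Agent.Lib.Helper94.Tens
import Cfsg.Prelude.Def_GeometricClasses

set_option autoImplicit false

namespace Cfsg.Agent.Lib.Helper9.Tn

open Module Matrix
open Cfsg.Agent.Lib.Helper94.Tens (pt)

variable {F : Type*} [Field F] {n a b : ℕ}

theorem exists_root [Fintype F] (r : ℕ) [Fact r.Prime] (hr : ¬ r ∣ Fintype.card F - 1) (s : F) :
    ∃ ν : F, ν ^ r = s := by
  classical
  have hp : r.Prime := Fact.out
  by_cases hs : s = 0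
  · exact ⟨0, by rw [hs, zero_pow hp.ne_zero]⟩
  have hcop : (Nat.card Fˣ).Coprime r := by
    rw [Nat.card_eq_fintype_card, Fintype.card_units]
    exact ((Nat.Prime.coprime_iff_not_dvd hp).2 hr).symm
  obtain ⟨ν, hν⟩ := (powCoprime hcop).surjective (Units.mk0 s hs)
  refine ⟨(ν : F), ?_⟩
  have h1 : ν ^ r = Units.mk0 s hs := hν
  have h2 := congrArg Units.val h1
  simpa using h2

end Cfsg.Agent.Lib.Helper9.Tn
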