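import Mathlib
import Cfsg.Agent.Lib.Helper9.Tn.Defs
import Cfsg.Agent.Lib.Helper94.Tens

set_option autoImplicit false

namespace Cfsg.Agent.Lib.Helper9.Tn

open Module Matrix
open Cfsg.Agent.Lib.Helper94.Tens (pt)

variable {F : Type*} [Field F] {n a b : ℕ}

/-- [SL1] -/
theorem slice_left (e : Fin n ≃ Fin a × Fin b) (P : Matrix.GeneralLinearGroup (Fin n) F)
    {x : Matrix (Fin n) (Fin n) F} {A : Matrix (Fin a) (Fin a) F} {B : Matrix (Fin b) (Fin b) F}
    (hx : Acts e P x A B) (hB : ∀ w, B *ᵥ w = 0 → w = 0) (u : Fin a → F)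
    (hu : LinearIndependent F ![u, A *ᵥ u]) (c : F) : b + eigdim x c ≤ n := by
  classical
  have key : ∀ w₁ w₂ : Fin b → F, pt e P u w₁ + pt e P (A *ᵥ u) w₂ = 0 → w₁ = 0 ∧ w₂ = 0 := by
    intro w₁ w₂ h
    have h1 := Cfsg.Agent.Lib.Helper94.Tens.sum_pt_eq_zero e P ![u, A *ᵥ u] hu ![w₁, w₂]
      (by rw [Fin.sum_univ_two]; exact h)
    exact ⟨h1 0, h1 1⟩
  have hinj : Function.Injective (pt e P u) := by
    rw [injective_iff_map_eq_zero]
    intro w hw
    exact (key w 0 (by rw [hw, map_zero, add_zero])).1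
  have hdis : Disjoint (LinearMap.range (pt e P u))
      (LinearMap.ker (Matrix.toLin' x - c • LinearMap.id)) := by
    rw [Submodule.disjoint_def]
    rintro _ ⟨w, rfl⟩ hw
    rw [LinearMap.mem_ker, LinearMap.sub_apply, Matrix.toLin'_apply, hx, LinearMap.smul_apply,
      LinearMap.id_apply, ← map_smul, sub_eq_add_neg, ← map_neg, add_comm] at hw
    have h2 := (key _ _ hw).2
    rw [hB w h2, map_zero]
  have h3 := Submodule.finrank_add_finrank_le_of_disjoint hdis
  rw [LinearMap.finrank_range_of_inj hinj] at h3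
  simpa [eigdim] using h3

end Cfsg.Agent.Lib.Helper9.Tn
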