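import Mathlib
import Cfsg.Agent.Lib.Helper9.Tn.Defs
import Cfsg.Agent.Lib.Helper9.Tn.NS
import Cfsg.Agent.Lib.Helper9.Tn.ET
import Cfsg.Agent.Lib.Helper9.Tn.SL1
import Cfsg.Agent.Lib.Helper9.Tn.SL2
import Cfsg.Agent.Lib.Helper9.Tn.POW
import Cfsg.Agent.Lib.Helper9.Tn.KER
import Cfsg.Agent.Lib.Helper9.Tn.L1b
import Cfsg.Agent.Lib.Helper9.Tn.ROOT

set_option autoImplicit false

namespace Cfsg.Agent.Lib.Helper9.Tn

open Module Matrix
open Cfsg.Agent.Lib.Helper94.Tens (pt)

variable {F : Type*} [Field F] {n a b : ℕ}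

theorem exists_acts (e : Fin n ≃ Fin a × Fin b) (P x : Matrix.GeneralLinearGroup (Fin n) F)
    (hx : x ∈ Cfsg.Geo.tensorProductSubgroup a b e P) :
    ∃ (A : Matrix.GeneralLinearGroup (Fin a) F) (B : Matrix.GeneralLinearGroup (Fin b) F),
      Acts e P (x : Matrix (Fin n) (Fin n) F) (A : Matrix (Fin a) (Fin a) F)
        (B : Matrix (Fin b) (Fin b) F) :=
  Cfsg.Agent.Lib.Helper94.Tens.exists_of_mem e P x hx

theorem gl_inj {m : ℕ} (B : Matrix.GeneralLinearGroup (Fin m) F) (w : Fin m → F)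
    (h : (B : Matrix (Fin m) (Fin m) F) *ᵥ w = 0) : w = 0 := by
  have h1 := congrArg (fun v => ((B⁻¹ : Matrix.GeneralLinearGroup (Fin m) F) :
    Matrix (Fin m) (Fin m) F) *ᵥ v) h
  simp only [Matrix.mulVec_mulVec, ← Units.val_mul, inv_mul_cancel, Units.val_one, Matrix.one_mulVec,
    Matrix.mulVec_zero] at h1
  exact h1

theorem acts_one_of_scalar (e : Fin n ≃ Fin a × Fin b) (P : Matrix.GeneralLinearGroup (Fin n) F)
    {x : Matrix (Fin n) (Fin n) F} {s : F} {B : Matrix (Fin b) (Fin b) F}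
    (hx : Acts e P x (s • (1 : Matrix (Fin a) (Fin a) F)) B) : Acts e P x 1 (s • B) := by
  intro u w
  rw [hx u w, Matrix.smul_mulVec, Matrix.one_mulVec, Matrix.smul_mulVec, map_smul, map_smul,
    LinearMap.smul_apply]

theorem card_eq (e : Fin n ≃ Fin a × Fin b) : n = a * b := by
  have := Fintype.card_congr e
  simpa using this

/-- the left factor is a scalar when some eigenspace has codimension `< b` -/
theorem left_scalar (e : Fin n ≃ Fin a × Fin b) (P : Matrix.GeneralLinearGroup (Fin n) F)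
    {x : Matrix (Fin n) (Fin n) F} {A : Matrix (Fin a) (Fin a) F}
    (B : Matrix.GeneralLinearGroup (Fin b) F)
    (hx : Acts e P x A (B : Matrix (Fin b) (Fin b) F)) (c : F) (h : n < b + eigdim x c) :
    ∃ s : F, A = s • (1 : Matrix (Fin a) (Fin a) F) := by
  by_contra hcon
  push Not at hcon
  obtain ⟨u, hu⟩ := exists_indep_of_not_scalar A hcon
  have := slice_left e P hx (gl_inj B) u hu c
  omega

theorem right_scalar (e : Fin n ≃ Fin a × Fin b) (P : Matrix.GeneralLinearGroup (Fin n) F)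
    {x : Matrix (Fin n) (Fin n) F} (A : Matrix.GeneralLinearGroup (Fin a) F)
    {B : Matrix (Fin b) (Fin b) F}
    (hx : Acts e P x (A : Matrix (Fin a) (Fin a) F) B) (c : F) (h : n < a + eigdim x c) :
    ∃ s : F, B = s • (1 : Matrix (Fin b) (Fin b) F) := by
  by_contra hcon
  push Not at hcon
  obtain ⟨w, hw⟩ := exists_indep_of_not_scalar B hcon
  have := slice_right e P hx (gl_inj A) w hw c
  omega

/-- [N1] -/
theorem scalar_of_small_codim (hlt : a ≤ b) (e : Fin n ≃ Fin a × Fin b)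
    (P x : Matrix.GeneralLinearGroup (Fin n) F)
    (hx : x ∈ Cfsg.Geo.tensorProductSubgroup a b e P) (c : F)
    (h : n < a + eigdim (x : Matrix (Fin n) (Fin n) F) c) :
    ∃ z : F, (x : Matrix (Fin n) (Fin n) F) = z • (1 : Matrix (Fin n) (Fin n) F) := by
  obtain ⟨A, B, hAB⟩ := exists_acts e P x hx
  obtain ⟨s, hs⟩ := left_scalar e P B hAB c (by omega)
  obtain ⟨t, ht⟩ := right_scalar e P A hAB c h
  rw [hs, ht] at hAB
  have h1 := acts_one_of_scalar e P hAB
  rw [smul_smul] at h1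
  have h2 := eigdim_of_acts_one e P h1 (s * t)
  rw [(eigdim_eq_iff _ _).2 rfl, ← card_eq e] at h2
  exact ⟨s * t, (eigdim_eq_iff _ _).1 h2⟩

/-- [N2] -/
theorem dvd_eigdim (e : Fin n ≃ Fin a × Fin b)
    (P x : Matrix.GeneralLinearGroup (Fin n) F)
    (hx : x ∈ Cfsg.Geo.tensorProductSubgroup a b e P) (c : F)
    (h : n < b + eigdim (x : Matrix (Fin n) (Fin n) F) c) (l : F) :
    a ∣ eigdim (x : Matrix (Fin n) (Fin n) F) l := by
  obtain ⟨A, B, hAB⟩ := exists_acts e P x hx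
  obtain ⟨s, hs⟩ := left_scalar e P B hAB c h
  rw [hs] at hAB
  have h1 := acts_one_of_scalar e P hAB
  rw [eigdim_of_acts_one e P h1 l]
  exact Dvd.intro _ rfl

/-- [N3] -/
theorem not_mem_of_order [Fintype F] (ha : 2 ≤ a) (hlt : a < b) (e : Fin n ≃ Fin a × Fin b)
    (P x : Matrix.GeneralLinearGroup (Fin n) F)
    (hx : x ∈ Cfsg.Geo.tensorProductSubgroup a b e P) (r : ℕ) [Fact r.Prime] (hrF : (r : F) ≠ 0)
    (hr1 : ¬ r ∣ Fintype.card F - 1)
    (hxr : (x : Matrix (Fin n) (Fin n) F) ^ r = 1) (hx1 : (x : Matrix (Fin n) (Fin n) F) ≠ 1)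
    (hi : 1 ≤ orderOf ((Fintype.card F : ℕ) : ZMod r))
    (hcod : n ≤ orderOf ((Fintype.card F : ℕ) : ZMod r) + eigdim (x : Matrix (Fin n) (Fin n) F) 1) :
    False := by
  have hn := card_eq e
  set i := orderOf ((Fintype.card F : ℕ) : ZMod r) with hidef
  obtain ⟨A, B, hAB⟩ := exists_acts e P x hx
  have hpow := acts_pow e P hAB r
  rw [hxr] at hpow
  have hb0 : 0 < b := by omega
  have e11 : eigdim (1 : Matrix (Fin n) (Fin n) F) 1 = n := (eigdim_eq_iff _ _).2 (one_smul _ _).symm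
  -- A ^ r is a scalar
  obtain ⟨s, hs⟩ : ∃ s : F, (A : Matrix (Fin a) (Fin a) F) ^ r = s • (1 : Matrix (Fin a) (Fin a) F) := by
    have := left_scalar e P (B ^ r) (x := 1) (A := (A : Matrix (Fin a) (Fin a) F) ^ r)
      (by rw [Units.val_pow_eq_pow_val]; exact hpow) 1 (by rw [e11]; omega)
    exact this
  -- A is a scalar
  obtain ⟨s', hs'⟩ : ∃ s' : F, (A : Matrix (Fin a) (Fin a) F) = s' • (1 : Matrix (Fin a) (Fin a) F) := by
    by_contra hcon
    push Not at hcon
    obtain ⟨u, hu⟩ := exists_indep_of_not_scalar _ hcon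
    have h1 := slice_left e P hAB (gl_inj B) u hu 1
    have hbi : b ≤ i := by omega
    obtain ⟨ν, hν⟩ := exists_root r hr1 s
    have hs0 : s ≠ 0 := by
      rintro rfl
      rw [zero_smul] at hs
      have h3 : IsUnit ((A : Matrix (Fin a) (Fin a) F) ^ r) := by
        rw [← Units.val_pow_eq_pow_val]; exact Units.isUnit _
      rw [hs] at h3
      haveI : Nonempty (Fin a) := ⟨⟨0, by omega⟩⟩
      exact not_isUnit_zero h3
    have hν0 : ν ≠ 0 := by
      rintro rfl
      rw [zero_pow (Fact.out : r.Prime).ne_zero] at hν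
      exact hs0 hν.symm
    have h2 := order_add_eigdim_le (ν⁻¹ • (A : Matrix (Fin a) (Fin a) F)) r hrF
      (by rw [smul_pow, hs, smul_smul, inv_pow, hν, inv_mul_cancel₀ hs0, one_smul])
      (by
        intro h4
        apply hcon ν
        rw [← h4, smul_smul, mul_inv_cancel₀ hν0, one_smul])
    omega
  rw [hs'] at hAB
  have h1 := acts_one_of_scalar e P hAB
  set B' : Matrix (Fin b) (Fin b) F := s' • (B : Matrix (Fin b) (Fin b) F) with hB'
  have hpow' := acts_pow e P h1 r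
  rw [hxr, one_pow] at hpow'
  have h2 := eigdim_of_acts_one e P hpow' 1
  rw [e11, hn] at h2
  have h3 : eigdim (B' ^ r) 1 = b := by
    have ha0 : 0 < a := by omega
    exact (Nat.eq_of_mul_eq_mul_left ha0 h2).symm
  have hB'r : B' ^ r = 1 := by
    rw [(eigdim_eq_iff _ _).1 h3, one_smul]
  have h4 := eigdim_of_acts_one e P h1 1
  have hB'1 : B' ≠ 1 := by
    intro h5
    rw [h5, (eigdim_eq_iff (1 : Matrix (Fin b) (Fin b) F) 1).2 (one_smul _ _).symm, ← hn] at h4
    apply hx1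
    rw [(eigdim_eq_iff _ _).1 h4, one_smul]
  have h5 := order_add_eigdim_le B' r hrF hB'r hB'1
  rw [← hidef] at h5
  rw [h4, hn] at hcod
  -- a * b ≤ i + a * k, i + k ≤ b, a ≥ 2, i ≥ 1
  have h6 : a * (i + eigdim B' 1) ≤ a * b := Nat.mul_le_mul_left a h5
  have h7 : 2 * i ≤ a * i := Nat.mul_le_mul_right i ha
  nlinarith

end Cfsg.Agent.Lib.Helper9.Tn
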