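import Mathlib
import Cfsg.Agent.Lib.Helper9.Tn.Defs
import Cfsg.Agent.Lib.Helper94.Tens
import Cfsg.Agent.Lib.Helper35.Asch.Kron

set_option autoImplicit false

namespace Cfsg.Agent.Lib.Helper9.Tn

open Module Matrix
open scoped Kronecker
open Cfsg.Agent.Lib.Helper94.Tens (pt TT pc)

variable {F : Type*} [Field F] {n a b : ℕ}

theorem BW0_pc_single (j : Fin a) (k : Fin b) :
    (pc (Pi.single j (1 : F)) (Pi.single k (1 : F)) : Fin a × Fin b → F) = Pi.single (j, k) 1 := by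
  funext ⟨j', k'⟩
  simp only [pc, Pi.single_apply, Prod.mk.injEq]
  by_cases h1 : j' = j <;> by_cases h2 : k' = k <;> simp [h1, h2]

/-- [BW0] -/
theorem conj_of_kron_basis (e : Fin n ≃ Fin a × Fin b) (P : Matrix.GeneralLinearGroup (Fin n) F)
    (X : (Fin n → F) →ₗ[F] (Fin n → F)) (𝔅 : Basis (Fin a × Fin b) F (Fin n → F))
    (A : Matrix.GeneralLinearGroup (Fin a) F) (B : Matrix.GeneralLinearGroup (Fin b) F)
    (h : ∀ j k, X (𝔅 (j, k)) = ∑ j', ∑ k',
      ((A : Matrix (Fin a) (Fin a) F) j' j * (B : Matrix (Fin b) (Fin b) F) k' k) • 𝔅 (j', k')) :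
    ∃ (g : (Fin n → F) ≃ₗ[F] (Fin n → F)) (y : Matrix.GeneralLinearGroup (Fin n) F),
      y ∈ Cfsg.Geo.tensorProductSubgroup a b e P ∧
      ∀ u, (y : Matrix (Fin n) (Fin n) F) *ᵥ u = g.symm (X (g u)) := by
  classical
  set y : Matrix.GeneralLinearGroup (Fin n) F :=
    (MulAut.conj P).toMonoidHom ((Cfsg.Geo.glReindex e.symm).toMonoidHom
      (Cfsg.Agent.Lib.Helper35.Asch.kronGL A B)) with hy
  have hymem : y ∈ Cfsg.Geo.tensorProductSubgroup a b e P :=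
    ⟨_, ⟨Cfsg.Agent.Lib.Helper35.Asch.kronGL A B, ⟨A, B, rfl⟩, rfl⟩, rfl⟩
  set g : (Fin n → F) ≃ₗ[F] (Fin n → F) := (TT e P).symm.trans 𝔅.equivFun.symm with hg
  have hgT : ∀ f, g (TT e P f) = ∑ jk, f jk • 𝔅 jk := by
    intro f
    rw [hg, LinearEquiv.trans_apply, LinearEquiv.symm_apply_apply, Basis.equivFun_symm_apply]
  -- action of y
  have hyT : ∀ f, (y : Matrix (Fin n) (Fin n) F) *ᵥ TT e P f
      = TT e P (((A : Matrix (Fin a) (Fin a) F) ⊗ₖ (B : Matrix (Fin b) (Fin b) F)) *ᵥ f) := by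
    intro f
    have h1 : (y : Matrix (Fin n) (Fin n) F) =
        (P : Matrix (Fin n) (Fin n) F) *
          ((A : Matrix (Fin a) (Fin a) F) ⊗ₖ (B : Matrix (Fin b) (Fin b) F)).submatrix e e *
          ((P⁻¹ : Matrix.GeneralLinearGroup (Fin n) F) : Matrix (Fin n) (Fin n) F) := rfl
    rw [Cfsg.Agent.Lib.Helper94.Tens.TT_apply, Cfsg.Agent.Lib.Helper94.Tens.TT_apply, h1,
      Matrix.mulVec_mulVec, Matrix.mul_assoc, ← Units.val_mul, inv_mul_cancel, Units.val_one,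
      Matrix.mul_one, ← Matrix.mulVec_mulVec, Matrix.submatrix_mulVec_equiv]
    congr 2
    have : (f ∘ ⇑e) ∘ ⇑e.symm = f := by
      funext p; simp
    rw [this]
  refine ⟨g, y, hymem, fun u => ?_⟩
  apply g.injective
  rw [LinearEquiv.apply_symm_apply]
  obtain ⟨f, rfl⟩ := (TT e P).surjective u
  rw [hyT, hgT, hgT, map_sum]
  simp only [map_smul]
  -- expand
  have hX : ∀ jk : Fin a × Fin b, X (𝔅 jk) = ∑ jk' : Fin a × Fin b,
      (((A : Matrix (Fin a) (Fin a) F) ⊗ₖ (B : Matrix (Fin b) (Fin b) F)) jk' jk) • 𝔅 jk' := by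
    rintro ⟨j, k⟩
    rw [h, Fintype.sum_prod_type]
    rfl
  simp only [hX, Finset.smul_sum, smul_smul]
  rw [Finset.sum_comm]
  refine Finset.sum_congr rfl fun jk' _ => ?_
  rw [← Finset.sum_smul]
  congr 1
  simp only [Matrix.mulVec, dotProduct]
  refine Finset.sum_congr rfl fun jk _ => ?_
  ring

end Cfsg.Agent.Lib.Helper9.Tn
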