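import Mathlib
import Cfsg.Agent.Lib.Helper9.Tn.Defs
import Cfsg.Agent.Lib.Helper9.Tn.BW0

set_option autoImplicit false

namespace Cfsg.Agent.Lib.Helper9.Tn

open Module Matrix
open Cfsg.Agent.Lib.Helper94.Tens (pt)

variable {F : Type*} [Field F] {n a b : ℕ}

/-- `inl k ↦ (0, σ k)`, `inr k ↦ (1, σ k)` -/
def BWA_tau {κ : Type} {b : ℕ} (σ : κ ≃ Fin b) : κ ⊕ κ ≃ Fin 2 × Fin b where
  toFun := Sum.elim (fun k => (0, σ k)) (fun k => (1, σ k))
  invFun := fun q => if q.1 = 0 then Sum.inl (σ.symm q.2) else Sum.inr (σ.symm q.2)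
  left_inv := by rintro (k | k) <;> simp
  right_inv := by
    rintro ⟨i, k⟩
    fin_cases i <;> simp

theorem BWA_tau_symm_zero {κ : Type} {b : ℕ} (σ : κ ≃ Fin b) (k : Fin b) :
    (BWA_tau σ).symm (0, k) = Sum.inl (σ.symm k) := by
  simp [BWA_tau]

theorem BWA_tau_symm_one {κ : Type} {b : ℕ} (σ : κ ≃ Fin b) (k : Fin b) :
    (BWA_tau σ).symm (1, k) = Sum.inr (σ.symm k) := by
  simp [BWA_tau]

theorem BWA_card (e : Fin n ≃ Fin 2 × Fin b) {κ : Type} [Fintype κ]
    (B' : Basis (κ ⊕ κ) F (Fin n → F)) : Fintype.card κ = b := by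
  have h1 := Module.finrank_eq_card_basis B'
  rw [Module.finrank_fin_fun, Fintype.card_sum] at h1
  have h2 := Fintype.card_congr e
  rw [Fintype.card_fin, Fintype.card_prod, Fintype.card_fin, Fintype.card_fin] at h2
  omega

theorem conj_split (e : Fin n ≃ Fin 2 × Fin b) (P : Matrix.GeneralLinearGroup (Fin n) F)
    (X : (Fin n → F) →ₗ[F] (Fin n → F)) {κ : Type} [Fintype κ] (B' : Basis (κ ⊕ κ) F (Fin n → F))
    (ε : κ → F) (hε : ∀ k, ε k ≠ 0) (h1 : ∀ k, X (B' (Sum.inl k)) = ε k • B' (Sum.inl k))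
    (h2 : ∀ k, X (B' (Sum.inr k)) = ε k • B' (Sum.inr k)) :
    ∃ (g : (Fin n → F) ≃ₗ[F] (Fin n → F)) (y : Matrix.GeneralLinearGroup (Fin n) F),
      y ∈ Cfsg.Geo.tensorProductSubgroup 2 b e P ∧
      ∀ u, (y : Matrix (Fin n) (Fin n) F) *ᵥ u = g.symm (X (g u)) := by
  let σ : κ ≃ Fin b := Fintype.equivFinOfCardEq (BWA_card e B')
  have hdet : (Matrix.diagonal (fun k : Fin b => ε (σ.symm k))).det ≠ 0 := by
    rw [Matrix.det_diagonal]
    exact Finset.prod_ne_zero_iff.mpr (fun k _ => hε _)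
  refine conj_of_kron_basis e P X (B'.reindex (BWA_tau σ)) 1
    (Matrix.GeneralLinearGroup.mkOfDetNeZero _ hdet) ?_
  intro j k
  have hB : ((Matrix.GeneralLinearGroup.mkOfDetNeZero _ hdet : Matrix.GeneralLinearGroup (Fin b) F) :
      Matrix (Fin b) (Fin b) F) = Matrix.diagonal (fun k : Fin b => ε (σ.symm k)) := rfl
  rw [hB, Finset.sum_eq_single j, Finset.sum_eq_single k]
  · simp only [Units.val_one, Matrix.one_apply_eq, Matrix.diagonal_apply_eq, one_mul,
      Basis.reindex_apply]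
    fin_cases j
    · exact (congrArg (fun t => X (B' t)) (BWA_tau_symm_zero σ k)).trans
        ((h1 _).trans (congrArg (fun t => ε (σ.symm k) • B' t) (BWA_tau_symm_zero σ k).symm))
    · exact (congrArg (fun t => X (B' t)) (BWA_tau_symm_one σ k)).trans
        ((h2 _).trans (congrArg (fun t => ε (σ.symm k) • B' t) (BWA_tau_symm_one σ k).symm))
  · intro k' _ hk'
    rw [Matrix.diagonal_apply_ne _ hk', mul_zero, zero_smul]
  · intro hk
    exact absurd (Finset.mem_univ k) hk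
  · intro j' _ hj'
    apply Finset.sum_eq_zero
    intro k' _
    rw [Units.val_one, Matrix.one_apply_ne hj', zero_mul, zero_smul]
  · intro hj
    exact absurd (Finset.mem_univ j) hj

end Cfsg.Agent.Lib.Helper9.Tn
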