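import Mathlib
import Cfsg.Agent.Lib.Helper9.Tn.Defs
import Cfsg.Agent.Lib.Helper9.Tn.BW0
import Cfsg.Agent.Lib.Helper9.Tn.BWA

set_option autoImplicit false

namespace Cfsg.Agent.Lib.Helper9.Tn

open Module Matrix
open Cfsg.Agent.Lib.Helper94.Tens (pt)

variable {F : Type*} [Field F] {n a b : ℕ}

theorem conj_free (e : Fin n ≃ Fin 2 × Fin b) (P : Matrix.GeneralLinearGroup (Fin n) F)
    (X : (Fin n → F) →ₗ[F] (Fin n → F)) {z : F} (hz : z ≠ 0) (hXX : ∀ v, X (X v) = z • v)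
    {κ : Type} [Fintype κ] (B' : Basis (κ ⊕ κ) F (Fin n → F))
    (h1 : ∀ k, B' (Sum.inr k) = X (B' (Sum.inl k))) :
    ∃ (g : (Fin n → F) ≃ₗ[F] (Fin n → F)) (y : Matrix.GeneralLinearGroup (Fin n) F),
      y ∈ Cfsg.Geo.tensorProductSubgroup 2 b e P ∧
      ∀ u, (y : Matrix (Fin n) (Fin n) F) *ᵥ u = g.symm (X (g u)) := by
  let σ : κ ≃ Fin b := Fintype.equivFinOfCardEq (BWA_card e B')
  have hdet : (!![0, z; 1, 0] : Matrix (Fin 2) (Fin 2) F).det ≠ 0 := by
    rw [Matrix.det_fin_two_of]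
    simpa using hz
  refine conj_of_kron_basis e P X (B'.reindex (BWA_tau σ))
    (Matrix.GeneralLinearGroup.mkOfDetNeZero _ hdet) 1 ?_
  intro j k
  have hA : ((Matrix.GeneralLinearGroup.mkOfDetNeZero _ hdet : Matrix.GeneralLinearGroup (Fin 2) F) :
      Matrix (Fin 2) (Fin 2) F) = !![0, z; 1, 0] := rfl
  have hsum : ∀ j' : Fin 2, ∑ k' : Fin b,
      ((!![0, z; 1, 0] : Matrix (Fin 2) (Fin 2) F) j' j *
        ((1 : Matrix.GeneralLinearGroup (Fin b) F) : Matrix (Fin b) (Fin b) F) k' k) •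
          (B'.reindex (BWA_tau σ)) (j', k')
      = ((!![0, z; 1, 0] : Matrix (Fin 2) (Fin 2) F) j' j) • (B'.reindex (BWA_tau σ)) (j', k) := by
    intro j'
    rw [Finset.sum_eq_single k]
    · rw [Units.val_one, Matrix.one_apply_eq, mul_one]
    · intro k' _ hk'
      rw [Units.val_one, Matrix.one_apply_ne hk', mul_zero, zero_smul]
    · intro hk
      exact absurd (Finset.mem_univ k) hk
  rw [hA, Fin.sum_univ_two, hsum, hsum]
  simp only [Basis.reindex_apply]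
  have e0 := BWA_tau_symm_zero σ k
  have e1 := BWA_tau_symm_one σ k
  fin_cases j
  · change X (B' ((BWA_tau σ).symm (0, k))) = _
    rw [e0, e1, h1]
    simp
  · change X (B' ((BWA_tau σ).symm (1, k))) = _
    rw [e0, e1, h1, hXX]
    simp

end Cfsg.Agent.Lib.Helper9.Tn
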