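import Mathlib
import Cfsg.Agent.Lib.Helper9.Tn.Defs
import Cfsg.Agent.Lib.Helper94.Tens
import Cfsg.Prelude.Def_GeometricClasses

set_option autoImplicit false

namespace Cfsg.Agent.Lib.Helper9.Tn

open Module Matrix
open Cfsg.Agent.Lib.Helper94.Tens (pt)

variable {F : Type*} [Field F] {n a b : ℕ}

theorem conj_mem_iff (e : Fin n ≃ Fin a × Fin b) (g x P : Matrix.GeneralLinearGroup (Fin n) F) :
    g⁻¹ * x * g ∈ Cfsg.Geo.tensorProductSubgroup a b e P ↔
      x ∈ Cfsg.Geo.tensorProductSubgroup a b e (g * P) := by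
  unfold Cfsg.Geo.tensorProductSubgroup
  constructor
  · rintro ⟨k, hk, hkx⟩
    refine ⟨k, hk, ?_⟩
    have h1 : P * k * P⁻¹ = g⁻¹ * x * g := hkx
    show g * P * k * (g * P)⁻¹ = x
    have h2 : g * P * k * (g * P)⁻¹ = g * (P * k * P⁻¹) * g⁻¹ := by group
    rw [h2, h1]
    group
  · rintro ⟨k, hk, hkx⟩
    refine ⟨k, hk, ?_⟩
    have h1 : g * P * k * (g * P)⁻¹ = x := hkx
    show P * k * P⁻¹ = g⁻¹ * x * g
    rw [← h1]
    group

end Cfsg.Agent.Lib.Helper9.Tn
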