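import Mathlib
import Cfsg.Agent.Lib.Helper9.Tn.Defs
import Cfsg.Agent.Lib.Helper68.SpD.I2
import Cfsg.Prelude.Def_GeometricClasses

set_option autoImplicit false

namespace Cfsg.Agent.Lib.Helper9.Tn

open Module Matrix

variable {F : Type*} [Field F] {n a b : ℕ}

theorem IDX_mem_specialLinear_iff (g : Matrix.GeneralLinearGroup (Fin n) F) :
    g ∈ Cfsg.Geo.specialLinear (Fin n) F ↔ (g : Matrix (Fin n) (Fin n) F).det = 1 := by
  unfold Cfsg.Geo.specialLinear
  rw [MonoidHom.mem_ker, Units.ext_iff]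
  rfl

/-- `specialLinear` has the order of `SL_n` -/
theorem IDX_card : Nat.card (Cfsg.Geo.specialLinear (Fin n) F)
    = Nat.card (Matrix.SpecialLinearGroup (Fin n) F) := by
  refine Nat.card_congr
    { toFun := fun g => ⟨(g.1 : Matrix (Fin n) (Fin n) F), (IDX_mem_specialLinear_iff g.1).mp g.2⟩
      invFun := fun A => ⟨Matrix.GeneralLinearGroup.mkOfDetNeZero A.1 (by rw [A.2]; exact one_ne_zero),
        (IDX_mem_specialLinear_iff _).mpr A.2⟩
      left_inv := fun g => Subtype.ext (Units.ext rfl)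
      right_inv := fun A => Subtype.ext rfl }

/-- [IDX] -/
theorem prime_dvd_cases [Fintype F] {p : ℕ} [Fact p.Prime] [CharP F p] (hn : 2 ≤ n)
    (H : Subgroup (Matrix.GeneralLinearGroup (Fin n) F)) (r : ℕ) [Fact r.Prime]
    (h : r ∣ H.relIndex (Cfsg.Geo.specialLinear (Fin n) F)) :
    r = p ∨ ∃ j, 1 ≤ j ∧ j ≤ n ∧ r ∣ Fintype.card F ^ j - 1 := by
  have hr : r.Prime := Fact.out
  have hp : p.Prime := Fact.out
  have h1 : r ∣ Nat.card (Cfsg.Geo.specialLinear (Fin n) F) :=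
    h.trans (Subgroup.relIndex_dvd_card _ _)
  rw [IDX_card, Cfsg.Agent.Lib.Helper68.SpD.card_SL n (by omega)] at h1
  rcases (Nat.Prime.dvd_mul hr).mp h1 with h2 | h2
  · left
    have h3 := hr.dvd_of_dvd_pow h2
    obtain ⟨f, _, hf⟩ := FiniteField.card F p
    rw [hf] at h3
    exact (Nat.prime_dvd_prime_iff_eq hr hp).mp (hr.dvd_of_dvd_pow h3)
  · right
    obtain ⟨i, hi, hdvd⟩ := (Prime.dvd_finsetProd_iff hr.prime _).mp h2
    rw [Finset.mem_range] at hi
    exact ⟨i + 2, by omega, by omega, hdvd⟩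

end Cfsg.Agent.Lib.Helper9.Tn
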