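import Mathlib
import Cfsg.Agent.Lib.Helper9.Tn.Defs
import Cfsg.Agent.Lib.Helper94.Tens
import Cfsg.Prelude.Def_GeometricClasses

set_option autoImplicit false

namespace Cfsg.Agent.Lib.Helper9.Tn

open Module Matrix
open Cfsg.Agent.Lib.Helper94.Tens (pt)

variable {F : Type*} [Field F] {n a b : ℕ}

theorem eq_one_of_pow_eq_one [Fintype F] (r : ℕ) [Fact r.Prime] (hr : ¬ r ∣ Fintype.card F - 1) (z : F)
    (hz : z ^ r = 1) : z = 1 := by
  have hp : r.Prime := Fact.out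
  have hz0 : z ≠ 0 := by
    rintro rfl
    rw [zero_pow hp.ne_zero] at hz
    exact zero_ne_one hz
  have h1 : z ^ (Fintype.card F - 1) = 1 := FiniteField.pow_card_sub_one_eq_one z hz0
  have h2 := pow_gcd_eq_one.2 ⟨hz, h1⟩
  rwa [(Nat.Prime.coprime_iff_not_dvd hp).2 hr, pow_one] at h2

end Cfsg.Agent.Lib.Helper9.Tn
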