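import Mathlib
import Cfsg.Agent.Lib.Helper9.Tn.Defs
import Cfsg.Agent.Lib.Helper94.Tens
import Cfsg.Prelude.Def_GeometricClasses

set_option autoImplicit false

namespace Cfsg.Agent.Lib.Helper9.Tn

open Module Matrix
open Cfsg.Agent.Lib.Helper94.Tens (pt)

variable {F : Type*} [Field F] {n a b : ℕ}

theorem order_facts (q r : ℕ) [Fact r.Prime] (hq : 1 ≤ q) (j : ℕ) (hj : 1 ≤ j) (h : r ∣ q ^ j - 1) :
    1 ≤ orderOf (q : ZMod r) ∧ orderOf (q : ZMod r) ≤ j ∧ r ∣ q ^ orderOf (q : ZMod r) - 1 := by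
  have key : ∀ i : ℕ, (q : ZMod r) ^ i = 1 ↔ r ∣ q ^ i - 1 := by
    intro i
    have h1 : 1 ≤ q ^ i := Nat.one_le_pow _ _ hq
    rw [← ZMod.natCast_eq_zero_iff, Nat.cast_sub h1, sub_eq_zero]
    push_cast
    rfl
  have h1 : (q : ZMod r) ^ j = 1 := (key j).2 h
  have h2 : orderOf (q : ZMod r) ∣ j := orderOf_dvd_of_pow_eq_one h1
  have h3 : 0 < orderOf (q : ZMod r) := Nat.pos_of_dvd_of_pos h2 hj
  exact ⟨h3, Nat.le_of_dvd hj h2, (key _).1 (pow_orderOf_eq_one _)⟩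

end Cfsg.Agent.Lib.Helper9.Tn
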