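import Mathlib
import Cfsg.Agent.Lib.Helper9.Tn.Defs
import Cfsg.Prelude.Def_GeometricClasses

set_option autoImplicit false

namespace Cfsg.Agent.Lib.Helper9.Tn

open Module Matrix

variable {F : Type*} [Field F] {n a b : ℕ}

theorem XA_mem_specialLinear_iff (g : Matrix.GeneralLinearGroup (Fin n) F) :
    g ∈ Cfsg.Geo.specialLinear (Fin n) F ↔ (g : Matrix (Fin n) (Fin n) F).det = 1 := by
  unfold Cfsg.Geo.specialLinear
  rw [MonoidHom.mem_ker, Units.ext_iff]
  rfl

theorem XA_pow (i j : Fin n) (hij : i ≠ j) (k : ℕ) :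
    (Matrix.transvection i j (1 : F)) ^ k = Matrix.transvection i j (k : F) := by
  induction k with
  | zero => simp
  | succ k ih =>
    rw [pow_succ, ih, Matrix.transvection_mul_transvection_same _ _ hij]
    push_cast
    rfl

/-- [XA] -/
theorem exists_transvection {p : ℕ} [Fact p.Prime] [CharP F p] (hn : 2 ≤ n) :
    ∃ x : Matrix.GeneralLinearGroup (Fin n) F, x ∈ Cfsg.Geo.specialLinear (Fin n) F ∧
      ((x ^ p : Matrix.GeneralLinearGroup (Fin n) F) : Matrix (Fin n) (Fin n) F)
        = (1 : F) • (1 : Matrix (Fin n) (Fin n) F) ∧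
      (∀ z : F, (x : Matrix (Fin n) (Fin n) F) ≠ z • (1 : Matrix (Fin n) (Fin n) F)) ∧
      n ≤ 1 + eigdim (x : Matrix (Fin n) (Fin n) F) 1 := by
  set i₀ : Fin n := ⟨0, by omega⟩ with hi0
  set i₁ : Fin n := ⟨1, by omega⟩ with hi1
  have hne : i₀ ≠ i₁ := by
    intro h
    have := congrArg Fin.val h
    simp [hi0, hi1] at this
  set T : Matrix (Fin n) (Fin n) F := Matrix.transvection i₀ i₁ 1 with hT
  have hdet : T.det = 1 := Matrix.det_transvection_of_ne _ _ hne _
  refine ⟨Matrix.GeneralLinearGroup.mkOfDetNeZero T (by rw [hdet]; exact one_ne_zero),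
    ?_, ?_, ?_, ?_⟩
  · rw [XA_mem_specialLinear_iff]
    exact hdet
  · rw [Units.val_pow_eq_pow_val]
    show T ^ p = _
    rw [hT, XA_pow _ _ hne, CharP.cast_eq_zero, Matrix.transvection_zero, one_smul]
  · intro z hz
    have hz' : T = z • (1 : Matrix (Fin n) (Fin n) F) := hz
    have h1 := congrFun (congrFun hz' i₀) i₁
    rw [hT, Matrix.transvection, Matrix.add_apply, Matrix.one_apply_ne hne, Matrix.smul_apply,
      Matrix.one_apply_ne hne] at h1
    simp at h1
  · show n ≤ 1 + eigdim T 1
    unfold eigdim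
    have hle : LinearMap.ker (LinearMap.proj (R := F) (φ := fun _ : Fin n => F) i₁) ≤
        LinearMap.ker (Matrix.toLin' T - (1 : F) • LinearMap.id) := by
      intro v hv
      rw [LinearMap.mem_ker, LinearMap.proj_apply] at hv
      rw [LinearMap.mem_ker, LinearMap.sub_apply, Matrix.toLin'_apply, LinearMap.smul_apply,
        LinearMap.id_apply, one_smul, hT, Matrix.transvection, Matrix.add_mulVec, Matrix.one_mulVec,
        add_sub_cancel_left]
      ext k
      simp only [Matrix.mulVec, dotProduct, Matrix.single_apply, Pi.zero_apply, ite_mul, one_mul,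
        zero_mul]
      apply Finset.sum_eq_zero
      intro j _
      by_cases hj : i₁ = j
      · rw [← hj, hv]; simp
      · simp [hj]
    have h2 := Submodule.finrank_mono hle
    have h3 := LinearMap.finrank_range_add_finrank_ker
      (LinearMap.proj (R := F) (φ := fun _ : Fin n => F) i₁)
    have h4 : finrank F (LinearMap.range (LinearMap.proj (R := F) (φ := fun _ : Fin n => F) i₁)) ≤ 1 := by
      have := Submodule.finrank_le (LinearMap.range (LinearMap.proj (R := F) (φ := fun _ : Fin n => F) i₁))
      simpa using this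
    rw [Module.finrank_fin_fun] at h3
    omega

end Cfsg.Agent.Lib.Helper9.Tn
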