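import Mathlib
import Cfsg.Agent.Lib.Helper9.Tn.Defs

set_option autoImplicit false

namespace Cfsg.Agent.Lib.Helper9.Tn

open Module Matrix

variable {F : Type*} [Field F] {n a b : ℕ}

/-- [ED] -/
theorem eigdim_diagonal {m : ℕ} (d : Fin m → F) (c : F) :
    eigdim (Matrix.diagonal d) c = Nat.card {i // d i = c} := by
  classical
  unfold eigdim
  have e1 : Matrix.toLin' (Matrix.diagonal d) - c • LinearMap.id
      = (Matrix.diagonal (fun i => d i - c)).mulVecLin := by
    apply LinearMap.ext
    intro v
    ext i
    simp [Matrix.mulVec_diagonal, sub_mul]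
  rw [e1]
  have h1 := LinearMap.finrank_range_add_finrank_ker (Matrix.diagonal (fun i => d i - c)).mulVecLin
  have h2 : finrank F (LinearMap.range (Matrix.diagonal (fun i => d i - c)).mulVecLin)
      = Fintype.card {i // d i - c ≠ 0} := Matrix.rank_diagonal _
  have h3 : Fintype.card {i // d i - c ≠ 0} = Fintype.card {i // ¬ d i = c} :=
    Fintype.card_congr (Equiv.subtypeEquivRight (fun i => by rw [Ne, sub_eq_zero]))
  have h4 := Fintype.card_subtype_compl (fun i : Fin m => d i = c)
  have h5 : Fintype.card {i // d i = c} ≤ Fintype.card (Fin m) := Fintype.card_subtype_le _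
  rw [Module.finrank_fin_fun] at h1
  rw [Fintype.card_fin] at h4 h5
  rw [Nat.card_eq_fintype_card]
  omega

end Cfsg.Agent.Lib.Helper9.Tn
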