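import Mathlib
import Cfsg.Agent.Lib.Helper9.Tn.Defs
import Cfsg.Prelude.Def_GeometricClasses

set_option autoImplicit false

namespace Cfsg.Agent.Lib.Helper9.Tn

open Module Matrix

variable {F : Type*} [Field F] {n a b : ℕ}

theorem XG_mem_specialLinear_iff (g : Matrix.GeneralLinearGroup (Fin n) F) :
    g ∈ Cfsg.Geo.specialLinear (Fin n) F ↔ (g : Matrix (Fin n) (Fin n) F).det = 1 := by
  unfold Cfsg.Geo.specialLinear
  rw [MonoidHom.mem_ker, Units.ext_iff]
  rfl

/-- [XG] -/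
theorem exists_diag (d : Fin n → F) (hd : ∏ i, d i = 1) :
    ∃ x : Matrix.GeneralLinearGroup (Fin n) F, x ∈ Cfsg.Geo.specialLinear (Fin n) F ∧
      (x : Matrix (Fin n) (Fin n) F) = Matrix.diagonal d ∧
      ∀ k : ℕ, ((x ^ k : Matrix.GeneralLinearGroup (Fin n) F) : Matrix (Fin n) (Fin n) F)
        = Matrix.diagonal (fun i => d i ^ k) := by
  have hdet : (Matrix.diagonal d).det = 1 := by rw [Matrix.det_diagonal, hd]
  refine ⟨Matrix.GeneralLinearGroup.mkOfDetNeZero (Matrix.diagonal d) (by rw [hdet]; exact one_ne_zero),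
    ?_, rfl, ?_⟩
  · rw [XG_mem_specialLinear_iff]
    exact hdet
  · intro k
    rw [Units.val_pow_eq_pow_val]
    show (Matrix.diagonal d) ^ k = _
    rw [Matrix.diagonal_pow]
    rfl

end Cfsg.Agent.Lib.Helper9.Tn
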