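import Mathlib
import Cfsg.Agent.Lib.Helper9.Tn.Defs
import Cfsg.Agent.Lib.Helper9.Tn.XG
import Cfsg.Agent.Lib.Helper9.Tn.ED

set_option autoImplicit false

namespace Cfsg.Agent.Lib.Helper9.Tn

open Module Matrix
open Cfsg.Agent.Lib.Helper94.Tens (pt)

variable {F : Type*} [Field F] {n a b : ℕ}

theorem XB_exists_l [Fintype F] (r : ℕ) [Fact r.Prime] (hr2 : r ≠ 2)
    (hr : r ∣ Fintype.card F - 1) :
    ∃ l : F, l ≠ 0 ∧ l ^ r = 1 ∧ l ≠ 1 ∧ l⁻¹ ≠ l := by
  classical
  have hr' : r ∣ Fintype.card Fˣ := by rw [Fintype.card_units]; exact hr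
  obtain ⟨l0, hl0⟩ := exists_prime_orderOf_dvd_card r hr'
  have hp : r.Prime := Fact.out
  refine ⟨(l0 : F), l0.ne_zero, ?_, ?_, ?_⟩
  · rw [← Units.val_pow_eq_pow_val, ← hl0, pow_orderOf_eq_one, Units.val_one]
  · intro h1
    have : l0 = 1 := Units.ext (by rw [h1, Units.val_one])
    rw [this, orderOf_one] at hl0
    exact hp.one_lt.ne hl0
  · intro h1
    have h2 : l0 ^ 2 = 1 := by
      apply Units.ext
      rw [Units.val_pow_eq_pow_val, Units.val_one, sq]
      nth_rewrite 1 [← h1]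
      exact inv_mul_cancel₀ l0.ne_zero
    have h3 := orderOf_dvd_of_pow_eq_one h2
    rw [hl0] at h3
    exact hr2 ((Nat.prime_dvd_prime_iff_eq hp Nat.prime_two).mp h3)

theorem exists_diag_two [Fintype F] (hn : 3 ≤ n) (r : ℕ) [Fact r.Prime] (hr2 : r ≠ 2)
    (hr : r ∣ Fintype.card F - 1) :
    ∃ (x : Matrix.GeneralLinearGroup (Fin n) F) (l : F), x ∈ Cfsg.Geo.specialLinear (Fin n) F ∧
      ((x ^ r : Matrix.GeneralLinearGroup (Fin n) F) : Matrix (Fin n) (Fin n) F)
        = (1 : F) • (1 : Matrix (Fin n) (Fin n) F) ∧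
      (∀ z : F, (x : Matrix (Fin n) (Fin n) F) ≠ z • (1 : Matrix (Fin n) (Fin n) F)) ∧
      n ≤ 2 + eigdim (x : Matrix (Fin n) (Fin n) F) 1 ∧ eigdim (x : Matrix (Fin n) (Fin n) F) l = 1 := by
  classical
  obtain ⟨l, hl0, hlr, hl1, hll⟩ := XB_exists_l (F := F) r hr2 hr
  obtain ⟨i0, hi0⟩ : ∃ i : Fin n, i = ⟨0, by omega⟩ := ⟨_, rfl⟩
  obtain ⟨i1, hi1⟩ : ∃ i : Fin n, i = ⟨1, by omega⟩ := ⟨_, rfl⟩
  obtain ⟨i2, hi2⟩ : ∃ i : Fin n, i = ⟨2, by omega⟩ := ⟨_, rfl⟩
  have h01 : i0 ≠ i1 := by rw [hi0, hi1]; simp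
  have h02 : i2 ≠ i0 := by rw [hi0, hi2]; simp
  have h12 : i2 ≠ i1 := by rw [hi1, hi2]; simp
  obtain ⟨d, hd⟩ : ∃ d : Fin n → F,
      d = fun i => (if i = i0 then l else 1) * (if i = i1 then l⁻¹ else 1) := ⟨_, rfl⟩
  have hd0 : d i0 = l := by rw [hd]; simp [h01]
  have hd1 : d i1 = l⁻¹ := by rw [hd]; simp [h01.symm]
  have hdo : ∀ i, i ≠ i0 → i ≠ i1 → d i = 1 := by
    intro i h0 h1
    rw [hd]; simp [h0, h1]
  have hprod : ∏ i, d i = 1 := by
    rw [hd]
    simp only [Finset.prod_mul_distrib, Finset.prod_ite_eq', Finset.mem_univ, if_true]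
    exact mul_inv_cancel₀ hl0
  have hdr : ∀ i, d i ^ r = 1 := by
    intro i
    by_cases h0 : i = i0
    · rw [h0, hd0, hlr]
    · by_cases h1 : i = i1
      · rw [h1, hd1, inv_pow, hlr, inv_one]
      · rw [hdo i h0 h1, one_pow]
  obtain ⟨x, hx, hxd, hxk⟩ := exists_diag d hprod
  refine ⟨x, l, hx, ?_, ?_, ?_, ?_⟩
  · rw [hxk r, one_smul]
    simp only [hdr]
    exact Matrix.diagonal_one
  · intro z hz
    rw [hxd] at hz
    have e0 := congrFun (congrFun hz i0) i0
    have e2 := congrFun (congrFun hz i2) i2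
    simp only [Matrix.diagonal_apply_eq, Matrix.smul_apply, Matrix.one_apply_eq, smul_eq_mul,
      mul_one] at e0 e2
    rw [hd0] at e0
    rw [hdo i2 h02 h12] at e2
    exact hl1 (e0.trans e2.symm)
  · rw [hxd, eigdim_diagonal, Nat.card_eq_fintype_card, Fintype.card_subtype]
    have hsub : (Finset.univ \ {i0, i1} : Finset (Fin n)) ⊆ Finset.univ.filter (fun i => d i = 1) := by
      intro i hi
      simp only [Finset.mem_sdiff, Finset.mem_univ, Finset.mem_insert, Finset.mem_singleton,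
        true_and, not_or] at hi
      simp only [Finset.mem_filter, Finset.mem_univ, true_and]
      exact hdo i hi.1 hi.2
    have h1 := Finset.card_le_card hsub
    have h2 := Finset.le_card_sdiff ({i0, i1} : Finset (Fin n)) Finset.univ
    have h3 : ({i0, i1} : Finset (Fin n)).card ≤ 2 := Finset.card_le_two
    rw [Finset.card_univ, Fintype.card_fin] at h2
    omega
  · rw [hxd, eigdim_diagonal]
    have hiff : ∀ i, d i = l ↔ i = i0 := by
      intro i
      constructor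
      · intro hi
        by_contra h0
        by_cases h1 : i = i1
        · rw [h1, hd1] at hi
          exact hll hi
        · rw [hdo i h0 h1] at hi
          exact hl1 hi.symm
      · rintro rfl
        exact hd0
    rw [Nat.card_congr (Equiv.subtypeEquivRight hiff)]
    simp

end Cfsg.Agent.Lib.Helper9.Tn
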