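import Mathlib
import Cfsg.Agent.Lib.Helper9.Tn.Defs
import Cfsg.Agent.Lib.Helper9.Tn.XG
import Cfsg.Agent.Lib.Helper9.Tn.ED

set_option autoImplicit false

namespace Cfsg.Agent.Lib.Helper9.Tn

open Module Matrix

variable {F : Type*} [Field F] {n a b : ℕ}

/-- [XC1] -/
theorem exists_neg_two (h2 : (2 : F) ≠ 0) (hn : 3 ≤ n) :
    ∃ x : Matrix.GeneralLinearGroup (Fin n) F, x ∈ Cfsg.Geo.specialLinear (Fin n) F ∧
      ((x ^ 2 : Matrix.GeneralLinearGroup (Fin n) F) : Matrix (Fin n) (Fin n) F)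
        = (1 : F) • (1 : Matrix (Fin n) (Fin n) F) ∧
      (∀ z : F, (x : Matrix (Fin n) (Fin n) F) ≠ z • (1 : Matrix (Fin n) (Fin n) F)) ∧
      n ≤ 2 + eigdim (x : Matrix (Fin n) (Fin n) F) 1 := by
  let i0 : Fin n := ⟨0, by omega⟩
  let i1 : Fin n := ⟨1, by omega⟩
  let i2 : Fin n := ⟨2, by omega⟩
  have h01 : i0 ≠ i1 := by simp [i0, i1, Fin.ext_iff]
  have h20 : i2 ≠ i0 := by simp [i0, i2, Fin.ext_iff]
  have h21 : i2 ≠ i1 := by simp [i1, i2, Fin.ext_iff]
  let d : Fin n → F := fun i => if i = i0 ∨ i = i1 then -1 else 1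
  have hfil : (Finset.univ.filter fun i : Fin n => i = i0 ∨ i = i1) = {i0, i1} := by
    ext i; simp
  have hd : ∏ i, d i = 1 := by
    simp only [d]
    rw [Finset.prod_ite, Finset.prod_const, Finset.prod_const_one, hfil, Finset.card_pair h01]
    norm_num
  obtain ⟨x, hxS, hx, hxk⟩ := exists_diag d hd
  refine ⟨x, hxS, ?_, ?_, ?_⟩
  · rw [hxk 2, one_smul, ← Matrix.diagonal_one]
    congr 1
    funext i
    simp only [d]
    split_ifs <;> norm_num
  · intro z hz
    rw [hx] at hz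
    have e0 := congrFun (congrFun hz i0) i0
    have e2 := congrFun (congrFun hz i2) i2
    simp [d, h20, h21] at e0 e2
    apply h2
    linear_combination e2 - e0
  · rw [hx, eigdim_diagonal]
    have h1 : Nat.card {i : Fin n // ¬ (i = i0 ∨ i = i1)} ≤ Nat.card {i // d i = 1} := by
      apply Nat.card_le_card_of_injective
        (fun i : {i : Fin n // ¬ (i = i0 ∨ i = i1)} => (⟨i.1, by simp only [d, if_neg i.2]⟩ :
          {i // d i = 1}))
      intro i j hij
      exact Subtype.ext (congrArg (fun z : {i // d i = 1} => z.1) hij)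
    have h3 : Nat.card {i : Fin n // ¬ (i = i0 ∨ i = i1)} = n - 2 := by
      rw [Nat.card_eq_fintype_card, Fintype.card_subtype_compl, Fintype.card_subtype, hfil,
        Finset.card_pair h01, Fintype.card_fin]
    omega

end Cfsg.Agent.Lib.Helper9.Tn
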