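import Mathlib
import Cfsg.Agent.Lib.Helper9.Tn.Defs
import Cfsg.Agent.Lib.Helper9.Tn.XG
import Cfsg.Agent.Lib.Helper9.Tn.ED
import Cfsg.Agent.Lib.Helper9.Inv.Rd

set_option autoImplicit false

namespace Cfsg.Agent.Lib.Helper9.Tn

open Module Matrix

variable {F : Type*} [Field F] {n a b : ℕ}

/-- [XC2] -/
theorem exists_reflection (h2 : (2 : F) ≠ 0) (hn : 2 ≤ n) {c : F} (hc : c ^ n = -1) :
    ∃ x : Matrix.GeneralLinearGroup (Fin n) F, x ∈ Cfsg.Geo.specialLinear (Fin n) F ∧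
      ((x ^ 2 : Matrix.GeneralLinearGroup (Fin n) F) : Matrix (Fin n) (Fin n) F)
        = (c * c) • (1 : Matrix (Fin n) (Fin n) F) ∧
      (∀ z : F, (x : Matrix (Fin n) (Fin n) F) ≠ z • (1 : Matrix (Fin n) (Fin n) F)) ∧
      n ≤ 1 + eigdim (x : Matrix (Fin n) (Fin n) F) c := by
  have hc0 : c ≠ 0 := by
    rintro rfl
    rw [zero_pow (by omega)] at hc
    exact (neg_ne_zero.2 one_ne_zero) hc.symm
  let i₀ : Fin n := ⟨0, by omega⟩
  have hd : ∏ i, Inv.rd i₀ c i = 1 := by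
    rw [← Matrix.det_diagonal]; exact Inv.rd_det i₀ hc
  obtain ⟨x, hxS, hx, hxk⟩ := exists_diag (Inv.rd i₀ c) hd
  refine ⟨x, hxS, ?_, ?_, ?_⟩
  · rw [pow_two, Units.val_mul, hx]
    exact Inv.rd_sq i₀ c
  · intro z
    rw [hx]
    exact Inv.rd_ne hn h2 i₀ hc0 z
  · rw [hx, eigdim_diagonal]
    have h1 : Nat.card {i : Fin n // i ≠ i₀} ≤ Nat.card {i // Inv.rd i₀ c i = c} := by
      apply Nat.card_le_card_of_injective
        (fun i : {i : Fin n // i ≠ i₀} => (⟨i.1, by simp [Inv.rd, i.2]⟩ :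
          {i // Inv.rd i₀ c i = c}))
      intro i j hij
      exact Subtype.ext (congrArg (fun z : {i // Inv.rd i₀ c i = c} => z.1) hij)
    have h3 : Nat.card {i : Fin n // i ≠ i₀} = n - 1 := by
      rw [Nat.card_eq_fintype_card, Fintype.card_subtype_compl, Fintype.card_subtype_eq,
        Fintype.card_fin]
    omega

end Cfsg.Agent.Lib.Helper9.Tn
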