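import Mathlib
import Cfsg.Agent.Lib.Helper9.Tn.Defs
import Cfsg.Agent.Lib.Helper68.SpD.E1
import Cfsg.Prelude.Def_GeometricClasses

set_option autoImplicit false

namespace Cfsg.Agent.Lib.Helper9.Tn

open Module Matrix

variable {F : Type*} [Field F] {n a b : ℕ}

theorem XD_pow {I J : Type} [Fintype I] [Fintype J] [DecidableEq I] [DecidableEq J]
    (L : Matrix I I F) (k : ℕ) :
    (fromBlocks L 0 0 (1 : Matrix J J F)) ^ k = fromBlocks (L ^ k) 0 0 1 := by
  induction k with
  | zero => simp
  | succ k ih => rw [pow_succ, ih, Matrix.fromBlocks_multiply]; simp [pow_succ]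

/-- [XD] -/
theorem exists_block [Fintype F] (r : ℕ) [Fact r.Prime] (hr1 : ¬ r ∣ Fintype.card F - 1) (i : ℕ)
    (hi : 1 ≤ i) (hin : i ≤ n) (hri : r ∣ Fintype.card F ^ i - 1) :
    ∃ x : Matrix.GeneralLinearGroup (Fin n) F, x ∈ Cfsg.Geo.specialLinear (Fin n) F ∧
      ((x ^ r : Matrix.GeneralLinearGroup (Fin n) F) : Matrix (Fin n) (Fin n) F)
        = (1 : F) • (1 : Matrix (Fin n) (Fin n) F) ∧
      (x : Matrix (Fin n) (Fin n) F) ≠ 1 ∧
      n ≤ i + eigdim (x : Matrix (Fin n) (Fin n) F) 1 := by
  classical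
  obtain ⟨L, hLr, hLd, hLu⟩ := Cfsg.Agent.Lib.Helper68.SpD.exists_Lam r hr1 i hi hri
  let σ : Fin i ⊕ Fin (n - i) ≃ Fin n := finSumFinEquiv.trans (finCongr (by omega))
  let M0 : Matrix (Fin i ⊕ Fin (n - i)) (Fin i ⊕ Fin (n - i)) F := fromBlocks L 0 0 1
  let M : Matrix (Fin n) (Fin n) F := Matrix.reindexAlgEquiv F F σ M0
  have hdet : M.det = 1 := by
    rw [Matrix.det_reindexAlgEquiv, Matrix.det_fromBlocks_zero₂₁, hLd, Matrix.det_one, mul_one]
  have hpow : M ^ r = 1 := by
    rw [← map_pow, XD_pow, hLr, Matrix.fromBlocks_one, map_one]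
  have hne : M ≠ 1 := by
    intro h
    have h1 : M0 = 1 := (Matrix.reindexAlgEquiv F F σ).injective (by rw [map_one]; exact h)
    have h2 : L = 1 := by
      have := h1
      rw [← Matrix.fromBlocks_one] at this
      exact (Matrix.fromBlocks_inj.1 this).1
    have : Nonempty (Fin i) := ⟨⟨0, hi⟩⟩
    rw [h2, sub_self] at hLu
    exact not_isUnit_zero hLu
  refine ⟨Matrix.GeneralLinearGroup.mkOfDetNeZero M (by rw [hdet]; exact one_ne_zero), ?_, ?_, hne,
    ?_⟩
  · rw [Cfsg.Geo.specialLinear, MonoidHom.mem_ker]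
    apply Units.ext
    rw [Matrix.GeneralLinearGroup.val_det_apply]
    exact hdet
  · rw [Units.val_pow_eq_pow_val, one_smul]
    exact hpow
  · change n ≤ i + eigdim M 1
    let ψ : (Fin (n - i) → F) →ₗ[F] (Fin n → F) :=
      { toFun := fun w j => Sum.elim (0 : Fin i → F) w (σ.symm j)
        map_add' := by
          intro w w'
          funext j
          simp only [Pi.add_apply]
          generalize σ.symm j = c
          rcases c with c | c <;> simp
        map_smul' := by
          intro t w
          funext j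
          simp only [Pi.smul_apply, RingHom.id_apply]
          generalize σ.symm j = c
          rcases c with c | c <;> simp }
    have hψ : ∀ w, ψ w = (Sum.elim (0 : Fin i → F) w) ∘ σ.symm := fun w => rfl
    have hinj : Function.Injective ψ := by
      intro w w' h
      funext c
      have := congrFun h (σ (Sum.inr c))
      simpa [hψ] using this
    have hker : ∀ w, ψ w ∈ LinearMap.ker (Matrix.toLin' M - (1 : F) • LinearMap.id) := by
      intro w
      rw [LinearMap.mem_ker, LinearMap.sub_apply, Matrix.toLin'_apply, one_smul, LinearMap.id_apply,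
        sub_eq_zero, hψ]
      change (Matrix.reindex σ σ M0) *ᵥ _ = _
      rw [Matrix.reindex_apply, Matrix.submatrix_mulVec_equiv]
      congr 1
      have : (Sum.elim (0 : Fin i → F) w ∘ σ.symm) ∘ σ.symm.symm = Sum.elim (0 : Fin i → F) w := by
        funext c; simp
      rw [this, Matrix.fromBlocks_mulVec]
      simp
    have h1 := LinearMap.finrank_le_finrank_of_injective
      (f := ψ.codRestrict (LinearMap.ker (Matrix.toLin' M - (1 : F) • LinearMap.id)) hker)
      (by
        intro w w' h
        apply hinj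
        exact congrArg Subtype.val h)
    rw [Module.finrank_fin_fun] at h1
    unfold eigdim
    omega

end Cfsg.Agent.Lib.Helper9.Tn
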