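import Mathlib
import Cfsg.Agent.Lib.Helper9.Tn.Asm1
import Cfsg.Agent.Lib.Helper9.Tn.CJ
import Cfsg.Agent.Lib.Helper9.Tn.ONE
import Cfsg.Agent.Lib.Helper9.Tn.ORD
import Cfsg.Agent.Lib.Helper9.Tn.IDX
import Cfsg.Agent.Lib.Helper9.Tn.XA
import Cfsg.Agent.Lib.Helper9.Tn.XB
import Cfsg.Agent.Lib.Helper9.Tn.XC1
import Cfsg.Agent.Lib.Helper9.Tn.XC2
import Cfsg.Agent.Lib.Helper9.Tn.XD
import Cfsg.Agent.Lib.Helper9.Tn.BWA
import Cfsg.Agent.Lib.Helper9.Tn.BWB
import Cfsg.Agent.Lib.Helper9.Inv.Asm1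
import Cfsg.Agent.Lib.Helper9.Inv.A1
import Cfsg.Agent.Lib.Helper9.Inv.Rd
import Cfsg.Agent.Lib.Helper94.FormB

set_option autoImplicit false

namespace Cfsg.Agent.Lib.Helper9.Tn

open Module Matrix
open Cfsg.Agent.Lib.Helper94.Tens (pt)

variable {F : Type*} [Field F] {n a b : ℕ}

/-- S5979, direction (→) -/
theorem tn_fwd [Fintype F] {p : ℕ} [Fact p.Prime] [CharP F p] (ha : 2 ≤ a) (hlt : a < b)
    (e : Fin n ≃ Fin a × Fin b) (P : Matrix.GeneralLinearGroup (Fin n) F) (r : ℕ) [Fact r.Prime]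
    (hΩ : r ∣ (Cfsg.Geo.tensorProductSubgroup a b e P).relIndex (Cfsg.Geo.specialLinear (Fin n) F))
    (H : ∀ x ∈ Cfsg.Geo.specialLinear (Fin n) F,
      (∃ z : F, ((x ^ r : Matrix.GeneralLinearGroup (Fin n) F) : Matrix (Fin n) (Fin n) F)
        = z • (1 : Matrix (Fin n) (Fin n) F)) →
      (∀ z : F, (x : Matrix (Fin n) (Fin n) F) ≠ z • (1 : Matrix (Fin n) (Fin n) F)) →
      ∃ g ∈ Cfsg.Geo.specialLinear (Fin n) F, g⁻¹ * x * g ∈ Cfsg.Geo.tensorProductSubgroup a b e P) :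
    r = 2 ∧ a = 2 ∧ Odd (Fintype.card F) ∧
      padicValNat 2 (Fintype.card F - 1) ≤ padicValNat 2 n := by
  classical
  have hn := card_eq e
  have hn6 : 6 ≤ n := by
    rw [hn]
    have : 2 * 3 ≤ a * b := Nat.mul_le_mul ha (by omega)
    omega
  have H' : ∀ x ∈ Cfsg.Geo.specialLinear (Fin n) F,
      (∃ z : F, ((x ^ r : Matrix.GeneralLinearGroup (Fin n) F) : Matrix (Fin n) (Fin n) F)
        = z • (1 : Matrix (Fin n) (Fin n) F)) →
      (∀ z : F, (x : Matrix (Fin n) (Fin n) F) ≠ z • (1 : Matrix (Fin n) (Fin n) F)) →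
      ∃ P' : Matrix.GeneralLinearGroup (Fin n) F, x ∈ Cfsg.Geo.tensorProductSubgroup a b e P' := by
    intro x hx h1 h2
    obtain ⟨g, -, hg⟩ := H x hx h1 h2
    exact ⟨g * P, (conj_mem_iff e g x P).1 hg⟩
  have hq1 : 1 < Fintype.card F := Fintype.one_lt_card
  by_cases hrp : r = p
  · exfalso
    subst hrp
    obtain ⟨x, hx, h1, h2, h3⟩ := exists_transvection (F := F) (n := n) (p := r) (by omega)
    obtain ⟨P', hP'⟩ := H' x hx ⟨1, h1⟩ h2
    obtain ⟨z, hz⟩ := scalar_of_small_codim hlt.le e P' x hP' 1 (by omega)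
    exact h2 z hz
  have hrF : (r : F) ≠ 0 := by
    intro h0
    rw [CharP.cast_eq_zero_iff F p] at h0
    exact hrp ((Nat.prime_dvd_prime_iff_eq (Fact.out : p.Prime) (Fact.out : r.Prime)).1 h0).symm
  rcases prime_dvd_cases (p := p) (by omega) _ r hΩ with h | ⟨j, hj1, hjn, hj⟩
  · exact absurd h hrp
  by_cases hr1 : r ∣ Fintype.card F - 1
  · by_cases hr2 : r = 2
    · subst hr2
      have hodd : Odd (Fintype.card F) := by
        obtain ⟨k, hk⟩ := hr1
        exact ⟨k, by omega⟩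
      have h2 := Cfsg.Agent.Lib.Helper9.Inv.two_ne_zero_of_odd_card hodd
      refine ⟨rfl, ?_, hodd, ?_⟩
      · by_contra ha2
        obtain ⟨x, hx, h1, h2', h3⟩ := exists_neg_two (F := F) (n := n) h2 (by omega)
        obtain ⟨P', hP'⟩ := H' x hx ⟨1, h1⟩ h2'
        obtain ⟨z, hz⟩ := scalar_of_small_codim hlt.le e P' x hP' 1 (by omega)
        exact h2' z hz
      · by_contra hv
        rw [not_le] at hv
        obtain ⟨c, hc⟩ := Cfsg.Agent.Lib.Helper9.Inv.exists_pow_eq_neg_one hodd n (by omega) hv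
        obtain ⟨x, hx, h1, h2', h3⟩ := exists_reflection (F := F) (n := n) h2 (by omega) hc
        obtain ⟨P', hP'⟩ := H' x hx ⟨c * c, h1⟩ h2'
        obtain ⟨z, hz⟩ := scalar_of_small_codim hlt.le e P' x hP' c (by omega)
        exact h2' z hz
    · exfalso
      obtain ⟨x, l, hx, h1, h2, h3, h4⟩ := exists_diag_two (F := F) (n := n) (by omega) r hr2 hr1
      obtain ⟨P', hP'⟩ := H' x hx ⟨1, h1⟩ h2
      have h5 := dvd_eigdim e P' x hP' 1 (by omega) l
      rw [h4, Nat.dvd_one] at h5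
      omega
  · exfalso
    obtain ⟨i1, i2, i3⟩ := order_facts (Fintype.card F) r (by omega) j hj1 hj
    obtain ⟨x, hx, h1, h2, h3⟩ := exists_block (F := F) (n := n) r hr1 _ i1 (by omega) i3
    have hxr : (x : Matrix (Fin n) (Fin n) F) ^ r = 1 := by
      rw [← Units.val_pow_eq_pow_val, h1, one_smul]
    have hns : ∀ z : F, (x : Matrix (Fin n) (Fin n) F) ≠ z • (1 : Matrix (Fin n) (Fin n) F) := by
      intro z hz
      have h4 := hxr
      rw [hz, smul_pow, one_pow] at h4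
      have h5 : z ^ r = 1 := by
        have := congrFun (congrFun h4 ⟨0, by omega⟩) ⟨0, by omega⟩
        simpa using this
      rw [eq_one_of_pow_eq_one r hr1 z h5, one_smul] at hz
      exact h2 hz
    obtain ⟨P', hP'⟩ := H' x hx ⟨1, h1⟩ hns
    exact not_mem_of_order ha hlt e P' x hP' r hrF hr1 hxr h2 i1 h3

/-- S5979, direction (←) -/
theorem tn_bwd [Fintype F] (hb : 2 < b)
    (e : Fin n ≃ Fin 2 × Fin b) (P : Matrix.GeneralLinearGroup (Fin n) F)
    (hodd : Odd (Fintype.card F))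
    (hval : padicValNat 2 (Fintype.card F - 1) ≤ padicValNat 2 n)
    (x : Matrix.GeneralLinearGroup (Fin n) F) (hx : x ∈ Cfsg.Geo.specialLinear (Fin n) F) (z : F)
    (hz : ((x ^ 2 : Matrix.GeneralLinearGroup (Fin n) F) : Matrix (Fin n) (Fin n) F)
        = z • (1 : Matrix (Fin n) (Fin n) F)) :
    ∃ g ∈ Cfsg.Geo.specialLinear (Fin n) F, g⁻¹ * x * g ∈ Cfsg.Geo.tensorProductSubgroup 2 b e P := by
  classical
  have hn := card_eq e
  have hn0 : 0 < n := by omega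
  have h2 := Cfsg.Agent.Lib.Helper9.Inv.two_ne_zero_of_odd_card hodd
  have hdx : (x : Matrix (Fin n) (Fin n) F).det = 1 :=
    (Cfsg.Agent.Lib.Helper94.mem_specialLinear_iff x).1 hx
  set x' : Matrix.SpecialLinearGroup (Fin n) F := ⟨(x : Matrix (Fin n) (Fin n) F), hdx⟩ with hx'
  have hxx' : x = Matrix.SpecialLinearGroup.toGL x' := Units.ext rfl
  have hz' : ((x' ^ 2 : Matrix.SpecialLinearGroup (Fin n) F) : Matrix (Fin n) (Fin n) F)
      = z • (1 : Matrix (Fin n) (Fin n) F) := by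
    rw [Matrix.SpecialLinearGroup.coe_pow, ← hz, Units.val_pow_eq_pow_val]
  obtain ⟨hz0, hXX⟩ := Cfsg.Agent.Lib.Helper9.Inv.sq_facts hn0 x' hz'
  have hfr : finrank F (Fin n → F) = n := by simp
  have hdet : LinearMap.det (Matrix.toLin' (x' : Matrix (Fin n) (Fin n) F)) = 1 := by
    rw [LinearMap.det_toLin']; exact x'.det_coe
  obtain ⟨g, y, hy, hgy⟩ : ∃ (g : (Fin n → F) ≃ₗ[F] (Fin n → F))
      (y : Matrix.GeneralLinearGroup (Fin n) F), y ∈ Cfsg.Geo.tensorProductSubgroup 2 b e P ∧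
      ∀ u, (y : Matrix (Fin n) (Fin n) F) *ᵥ u
        = g.symm (Matrix.toLin' (x' : Matrix (Fin n) (Fin n) F) (g u)) := by
    by_cases hs : ∃ c : F, c * c = z
    · obtain ⟨c, rfl⟩ := hs
      have hc : c ≠ 0 := by rintro rfl; simp at hz0
      obtain ⟨κ, _, B', ε, e1, e2, e3⟩ :=
        Cfsg.Agent.Lib.Helper9.Inv.exists_scalar_planes_of_sq h2 hc hXX hdet
          (by rw [hfr, hn]; exact even_two_mul b) (by rw [hfr]; omega) (by rw [hfr]; exact hval)
      refine conj_split e P _ B' ε (fun k hk => ?_) e2 e3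
      have := e1 k
      rw [hk, zero_mul] at this
      exact hz0 this.symm
    · push Not at hs
      obtain ⟨κ, _, B, hB⟩ := Cfsg.Agent.Lib.Helper9.Inv.exists_free_basis hz0 hXX
        (Cfsg.Agent.Lib.Helper9.Inv.no_eigen_of_nonsquare hXX hs)
      exact conj_free e P _ hz0 hXX B hB
  obtain ⟨P', hP'⟩ := Cfsg.Agent.Lib.Helper9.Inv.exists_SL_conj hn0 x' hz0 hXX g
  refine ⟨Matrix.SpecialLinearGroup.toGL P', ?_, ?_⟩
  · rw [Cfsg.Agent.Lib.Helper94.mem_specialLinear_iff]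
    exact P'.det_coe
  · have h5 : (Matrix.SpecialLinearGroup.toGL P')⁻¹ * x * Matrix.SpecialLinearGroup.toGL P' = y := by
      rw [hxx', ← map_inv, ← map_mul, ← map_mul]
      apply Units.ext
      rw [Matrix.SpecialLinearGroup.coe_GL_coe_matrix]
      apply Matrix.toLin'.injective
      apply LinearMap.ext
      intro u
      rw [Matrix.toLin'_apply, Matrix.toLin'_apply, hP', hgy]
    rw [h5]
    exact hy

end Cfsg.Agent.Lib.Helper9.Tn
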